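import Cfsg.Agent.H759.LSix.Main
import Cfsg.Agent.S0051

/-!
# Splitting `C(x)` over `⟨x⟩` (helper759; L6)

`exists_split` : `x` of order `p`, `π : C(x) → Q` surjective with kernel `⟨x⟩`, `|Q|_p = p`, no elements of order `p²` in
`G`: there is `H ≃* Q` with `Split p x H` (Gaschütz).
-/

set_option autoImplicit false
set_option linter.unusedSectionVars false

namespace Cfsg.Agent.H759.LSix

open Cfsg Cfsg.Agent.Blocks.CyclicGroup

universe u v

/-- A group of order `p²` without elements of order `p²` splits over its subgroups of order `p`. -/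
theorem exists_compl {p : ℕ} [hp : Fact p.Prime] {A : Type*} [Group A] [Finite A] (hA : Nat.card A = p ^ 2)
    (hsq : ∀ a : A, orderOf a ≠ p ^ 2) (Z : Subgroup A) (hZ : Nat.card Z = p) :
    ∃ R : Subgroup A, R ⊓ Z = ⊥ ∧ Z ⊔ R = ⊤ := by
  obtain ⟨a, ha⟩ : ∃ a : A, a ∉ Z := by
    by_contra hcon
    push Not at hcon
    have h1 : Z = ⊤ := (Subgroup.eq_top_iff' Z).2 hcon
    rw [h1, Subgroup.card_top, hA] at hZ
    have := hp.out.one_lt
    nlinarith
  have hao : orderOf a = p := by
    have h1 : orderOf a ∣ p ^ 2 := by rw [← hA]; exact orderOf_dvd_natCard a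
    obtain ⟨k, hk, hk'⟩ := (Nat.dvd_prime_pow hp.out).1 h1
    have h2 : k ≠ 2 := fun h => hsq a (by rw [hk', h])
    have h3 : k ≠ 0 := by
      rintro rfl
      rw [pow_zero, orderOf_eq_one_iff] at hk'
      exact ha (hk' ▸ Z.one_mem)
    have h4 : k = 1 := by omega
    rw [hk', h4, pow_one]
  have hR : Nat.card (Subgroup.zpowers a) = p := by rw [Nat.card_zpowers, hao]
  have hinf : Subgroup.zpowers a ⊓ Z = ⊥ := by
    have h1 : Nat.card (Subgroup.zpowers a ⊓ Z : Subgroup A) ∣ p := by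
      rw [← hR]
      exact Subgroup.card_dvd_of_le inf_le_left
    rcases (Nat.dvd_prime hp.out).1 h1 with h2 | h2
    · exact Subgroup.card_eq_one.1 h2
    · exfalso
      have h3 : Subgroup.zpowers a ⊓ Z = Subgroup.zpowers a :=
        Subgroup.eq_of_le_of_card_ge inf_le_left (by rw [h2, hR])
      exact ha ((inf_eq_left.1 h3) (Subgroup.mem_zpowers a))
  refine ⟨Subgroup.zpowers a, hinf, ?_⟩
  apply Subgroup.eq_top_of_card_eq
  apply le_antisymm (Subgroup.card_le_card_group _)
  have hdisj : Disjoint Z (Subgroup.zpowers a) := by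
    rw [disjoint_iff, inf_comm]
    exact hinf
  have h1 : Function.Injective (fun g : Z × Subgroup.zpowers a => (⟨(g.1 : A) * g.2,
      Subgroup.mul_mem_sup g.1.2 g.2.2⟩ : (Z ⊔ Subgroup.zpowers a : Subgroup A))) := by
    intro g g' hgg
    exact Subgroup.mul_injective_of_disjoint hdisj (congrArg Subtype.val hgg)
  have h2 := Nat.card_le_card_of_injective _ h1
  rw [Nat.card_prod, hZ, hR, ← sq, ← hA] at h2
  exact h2

section main

variable {p : ℕ} [hp : Fact p.Prime] {G : Type u} [Group G] [Finite G] {x : G}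

/-- **Splitting.** -/
theorem exists_split (hx : orderOf x = p) {C : Subgroup G} (hC : C = Subgroup.centralizer ({x} : Set G))
    {Q : Type v} [Group Q] (π : C →* Q)
    (hπ : Function.Surjective π) (hker : ∀ c, π c = 1 → (c : G) ∈ Subgroup.zpowers x)
    (hker' : ∀ c : C, (c : G) = x → π c = 1)
    (hQ : (Nat.card Q).factorization p = 1) (hsq : ∀ t : G, orderOf t ≠ p ^ 2) :
    ∃ H : Subgroup G, Split p x H ∧ Nonempty (H ≃* Q) := by
  classical
  have hxC : x ∈ C := by rw [hC]; exact Subgroup.mem_centralizer_singleton_iff.2 rfl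
  let x' : C := ⟨x, hxC⟩
  set Z : Subgroup C := Subgroup.zpowers x' with hZ
  have hZker : Z = π.ker := by
    ext c
    rw [MonoidHom.mem_ker]
    constructor
    · intro hc
      obtain ⟨k, rfl⟩ := Subgroup.mem_zpowers_iff.1 hc
      rw [map_zpow, hker' x' rfl, one_zpow]
    · intro hc
      obtain ⟨k, hk⟩ := Subgroup.mem_zpowers_iff.1 (hker c hc)
      exact Subgroup.mem_zpowers_iff.2 ⟨k, Subtype.ext (by rw [← hk]; rfl)⟩
  have hZn : Z.Normal := by rw [hZker]; infer_instance
  have hZc : Nat.card Z = p := by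
    rw [hZ, Nat.card_zpowers, ← Subgroup.orderOf_coe]
    exact hx
  have hZcomm : IsMulCommutative Z := by rw [hZ]; infer_instance
  have hQfin : Finite Q := Finite.of_surjective π hπ
  have hCc : Nat.card C = p * Nat.card Q := by
    rw [← Subgroup.card_mul_index Z, hZc, hZker, Subgroup.index_ker, MonoidHom.range_eq_top.2 hπ, Subgroup.card_top]
  have hCf : (Nat.card C).factorization p = 2 := by
    rw [hCc, Nat.factorization_mul hp.out.ne_zero Nat.card_pos.ne', Finsupp.add_apply, hQ,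
      hp.out.factorization_self]
  obtain ⟨P⟩ : Nonempty (Sylow p C) := inferInstance
  -- `Z ≤ P`
  have hZP : Z ≤ (P : Subgroup C) := by
    have hZp : IsPGroup p Z := IsPGroup.of_card (n := 1) (by rw [hZc, pow_one])
    obtain ⟨Q', hQ'⟩ := hZp.exists_le_sylow
    obtain ⟨g, hg⟩ := MulAction.exists_smul_eq C Q' P
    intro z hz
    have h1 : g⁻¹ * z * g ∈ Q' := hQ' (by
      have := hZn.conj_mem z hz g⁻¹
      simpa using this)
    have h2 : MulAut.conj g • (g⁻¹ * z * g) ∈ ((g • Q' : Sylow p C) : Subgroup C) := by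
      rw [Sylow.coe_subgroup_smul]
      exact Subgroup.smul_mem_pointwise_smul _ _ _ h1
    rw [hg] at h2
    have h3 : MulAut.conj g • (g⁻¹ * z * g) = z := by
      show g * (g⁻¹ * z * g) * g⁻¹ = z
      group
    rw [h3] at h2
    exact h2
  have hPc : Nat.card P = p ^ 2 := by rw [P.card_eq_multiplicity, hCf]
  obtain ⟨R, hR1, hR2⟩ := exists_compl (A := P) hPc (fun a ha => hsq ((a : C) : G) (by
    rw [Subgroup.orderOf_coe, Subgroup.orderOf_coe]; exact ha)) (Z.subgroupOf (P : Subgroup C)) (by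
      rw [Nat.card_congr (Subgroup.subgroupOfEquivOfLe hZP).toEquiv]; exact hZc)
  obtain ⟨H, hH⟩ := Cfsg.Agent.S0051.result Z (P : Subgroup C) hZP (by
      rw [hZc]
      exact (Nat.Prime.coprime_iff_not_dvd hp.out).2 P.not_dvd_index)
    (R.map (P : Subgroup C).subtype) (by
      rintro _ ⟨r, -, rfl⟩
      exact r.2) (by
      rw [eq_bot_iff]
      rintro _ ⟨⟨r, hr, rfl⟩, hz⟩
      have h1 : r ∈ R ⊓ Z.subgroupOf (P : Subgroup C) := ⟨hr, Subgroup.mem_subgroupOf.2 hz⟩
      rw [hR1, Subgroup.mem_bot] at h1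
      rw [h1]
      exact Subgroup.mem_bot.2 rfl) (by
      have h1 := congrArg (Subgroup.map (P : Subgroup C).subtype) hR2
      rw [Subgroup.map_sup, Subgroup.subgroupOf_map_subtype, inf_eq_left.2 hZP, ← MonoidHom.range_eq_map,
        Subgroup.range_subtype] at h1
      exact h1)
  have hmem : ∀ h : C, (h : G) * x = x * (h : G) := fun h => Subgroup.mem_centralizer_singleton_iff.1 (hC ▸ h.2)
  have hinfHZ : ∀ c ∈ Z, c ∈ H → c = 1 := by
    intro c hc hc'
    have h1 := hH.disjoint
    exact Subgroup.mem_bot.1 (h1.le_bot ⟨hc, hc'⟩)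
  refine ⟨H.map C.subtype, ⟨hx, ?_, ?_, ?_⟩, ?_⟩
  · rintro _ ⟨h, -, rfl⟩
    exact hmem h
  · rintro m ⟨c, hc, hcm⟩
    have h1 : c ∈ Z := by
      refine Subgroup.mem_zpowers_iff.2 ⟨(m.val : ℤ), Subtype.ext ?_⟩
      rw [show (c : G) = u x m from hcm, u_eq, zpow_natCast]
      rfl
    have h2 := hinfHZ c h1 hc
    rw [← u_eq_one_iff hx, ← show (c : G) = u x m from hcm, h2]
    rfl
  · intro c hc
    have hcC : c ∈ C := by rw [hC]; exact Subgroup.mem_centralizer_singleton_iff.2 hc
    obtain ⟨⟨z, h⟩, hzh⟩ := hH.2 ⟨c, hcC⟩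
    obtain ⟨k, hk⟩ := Subgroup.mem_zpowers_iff.1 z.2
    obtain ⟨m, hm⟩ := exists_u_of_mem hx (x := ((z : C) : G)) (Subgroup.mem_zpowers_iff.2 ⟨k, by
      rw [← hk]; rfl⟩)
    refine ⟨m, ((h : C) : G), ⟨h, h.2, rfl⟩, ?_⟩
    rw [hm]
    exact (congrArg Subtype.val hzh).symm
  · have h1 : Function.Bijective (π.comp H.subtype) := by
      constructor
      · rw [injective_iff_map_eq_one]
        intro a ha
        have h2 : (a : C) ∈ Z := by
          rw [hZker, MonoidHom.mem_ker]
          exact ha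
        exact Subtype.ext (hinfHZ a h2 a.2)
      · intro q
        obtain ⟨c, rfl⟩ := hπ q
        obtain ⟨⟨z, h⟩, hzh⟩ := hH.2 c
        have hzh : (z : C) * (h : C) = c := hzh
        refine ⟨h, ?_⟩
        rw [← hzh, map_mul]
        have h3 : π (z : C) = 1 := by
          have h4 : (z : C) ∈ π.ker := hZker ▸ z.2
          exact h4
        rw [h3, one_mul]
        rfl
    have e1 : H ≃* Q := MulEquiv.ofBijective _ h1
    exact ⟨(Subgroup.equivMapOfInjective H C.subtype (Subgroup.subtype_injective C)).symm.trans e1⟩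

/-- **L6 with a projection.** -/
theorem dz_or_le_of_proj (hx : orderOf x = p) {C : Subgroup G} (hC : C = Subgroup.centralizer ({x} : Set G))
    {Q : Type v} [Group Q] (π : C →* Q)
    (hπ : Function.Surjective π) (hker : ∀ c, π c = 1 → (c : G) ∈ Subgroup.zpowers x)
    (hker' : ∀ c : C, (c : G) = x → π c = 1)
    (hQ : (Nat.card Q).factorization p = 1) (hsq : ∀ t : G, orderOf t ≠ p ^ 2)
    (hconj : ∀ t : G, orderOf t = p → ∃ (c : G) (k : ℕ), c * t * c⁻¹ = x ^ k) :
    Cfsg.Agent.H665.NoPQ.HasDZ p G ∨ Nat.card (ConjClasses G) ≤ p * Nat.card (ConjClasses Q) := by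
  have := Fintype.ofFinite G
  obtain ⟨H, hS, ⟨e⟩⟩ := exists_split hx hC π hπ hker hker' hQ hsq
  have h1 : Nat.card (ConjClasses H) = Nat.card (ConjClasses Q) := by
    have hQfin : Finite Q := Finite.of_surjective π hπ
    refine le_antisymm ?_ ?_
    · exact Nat.card_le_card_of_surjective _ (ConjClasses.map_surjective (f := e.symm.toMonoidHom) e.symm.surjective)
    · exact Nat.card_le_card_of_surjective _ (ConjClasses.map_surjective (f := e.toMonoidHom) e.surjective)
  rw [← h1]
  refine dz_or_le hS (by rw [Nat.card_congr e.toEquiv]; exact hQ) (fun t ht => ?_) hsq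
  obtain ⟨c, k, hc⟩ := hconj t ht
  exact ⟨c, (k : ZMod p), by rw [hc, u_natCast hx]⟩

end main

end Cfsg.Agent.H759.LSix
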